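import Mathlib
import Cfsg.Agent.Lib.Helper99.C64.Defs

/-!
# C64 (S6000), package [R0]: facts about the standard group `R0 ι` of order 64
-/

set_option autoImplicit false

namespace Cfsg.Agent.Lib.Helper88.C64

open Matrix Cfsg.Agent.Lib.Helper99.C64

universe u

section rel

variable (F : Type u) [Field F]

theorem zaza : mZa F * mZa F = 1 := by
  ext i j; fin_cases i <;> fin_cases j <;> simp [mZa, Matrix.mul_apply, Fin.sum_univ_four]
theorem xaxa : mXa F * mXa F = 1 := by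
  ext i j; fin_cases i <;> fin_cases j <;> simp [mXa, Matrix.mul_apply, Fin.sum_univ_four]
theorem zbzb : mZb F * mZb F = 1 := by
  ext i j; fin_cases i <;> fin_cases j <;> simp [mZb, Matrix.mul_apply, Fin.sum_univ_four]
theorem xbxb : mXb F * mXb F = 1 := by
  ext i j; fin_cases i <;> fin_cases j <;> simp [mXb, Matrix.mul_apply, Fin.sum_univ_four]
theorem zaxa : mZa F * mXa F = -(mXa F * mZa F) := by
  ext i j; fin_cases i <;> fin_cases j <;> simp [mZa, mXa, Matrix.mul_apply, Fin.sum_univ_four]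
theorem zbxb : mZb F * mXb F = -(mXb F * mZb F) := by
  ext i j; fin_cases i <;> fin_cases j <;> simp [mZb, mXb, Matrix.mul_apply, Fin.sum_univ_four]
theorem zazb : mZa F * mZb F = mZb F * mZa F := by
  ext i j; fin_cases i <;> fin_cases j <;> simp [mZa, mZb, Matrix.mul_apply, Fin.sum_univ_four]
theorem zaxb : mZa F * mXb F = mXb F * mZa F := by
  ext i j; fin_cases i <;> fin_cases j <;> simp [mZa, mXb, Matrix.mul_apply, Fin.sum_univ_four]
theorem xazb : mXa F * mZb F = mZb F * mXa F := by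
  ext i j; fin_cases i <;> fin_cases j <;> simp [mXa, mZb, Matrix.mul_apply, Fin.sum_univ_four]
theorem xaxb : mXa F * mXb F = mXb F * mXa F := by
  ext i j; fin_cases i <;> fin_cases j <;> simp [mXa, mXb, Matrix.mul_apply, Fin.sum_univ_four]

end rel

variable {F : Type u} [Field F]

/-- Sign-commutation: `x * w = s • (w * x)`. -/
def SC (x w : M4 F) (s : F) : Prop := x * w = s • (w * x)

theorem sc_mul_right {x w w' : M4 F} {s t : F} (h : SC x w s) (h' : SC x w' t) :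
    SC x (w * w') (s * t) := by
  unfold SC at *
  rw [← Matrix.mul_assoc, h, Matrix.smul_mul, Matrix.mul_assoc, h', Matrix.mul_smul, smul_smul,
    Matrix.mul_assoc]

theorem sc_mul_left {x y w : M4 F} {s t : F} (h : SC x w s) (h' : SC y w t) :
    SC (x * y) w (s * t) := by
  unfold SC at *
  rw [Matrix.mul_assoc, h', Matrix.mul_smul, ← Matrix.mul_assoc, h, Matrix.smul_mul, smul_smul,
    Matrix.mul_assoc, mul_comm]

theorem sc_one_right (x : M4 F) : SC x 1 1 := by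
  unfold SC; simp

theorem sc_one_left (w : M4 F) : SC 1 w 1 := by
  unfold SC; simp

theorem sc_pow_right {x w : M4 F} {s : F} (h : SC x w s) (n : ℕ) : SC x (w ^ n) (s ^ n) := by
  induction n with
  | zero => simpa using sc_one_right x
  | succ n ih => rw [pow_succ, pow_succ]; exact sc_mul_right ih h

theorem sc_pow_left {x w : M4 F} {s : F} (h : SC x w s) (n : ℕ) : SC (x ^ n) w (s ^ n) := by
  induction n with
  | zero => simpa using sc_one_left w
  | succ n ih => rw [pow_succ, pow_succ]; exact sc_mul_left ih h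

theorem sc_of_comm {x w : M4 F} (h : x * w = w * x) : SC x w 1 := by
  unfold SC; rw [one_smul]; exact h

theorem sc_of_anti {x w : M4 F} (h : x * w = -(w * x)) : SC x w (-1) := by
  unfold SC; rw [neg_one_smul]; exact h

theorem sc_smul_right {x w : M4 F} {s : F} (c : F) (h : SC x w s) : SC x (c • w) s := by
  unfold SC at *
  rw [Matrix.mul_smul, h, Matrix.smul_mul, smul_comm]

theorem sc_smul_left {x w : M4 F} {s : F} (c : F) (h : SC x w s) : SC (c • x) w s := by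
  unfold SC at *
  rw [Matrix.smul_mul, h, Matrix.mul_smul, smul_comm]


/-! ## Words -/

/-- The word `Za^e1 * Xa^e2 * Zb^e3 * Xb^e4`. -/
def W (F : Type u) [Field F] (e1 e2 e3 e4 : ℕ) : M4 F :=
  mZa F ^ e1 * mXa F ^ e2 * mZb F ^ e3 * mXb F ^ e4

theorem xaza (F : Type u) [Field F] : mXa F * mZa F = -(mZa F * mXa F) := by
  rw [zaxa, neg_neg]

theorem xbzb (F : Type u) [Field F] : mXb F * mZb F = -(mZb F * mXb F) := by
  rw [zbxb, neg_neg]

theorem sc_za_W (e1 e2 e3 e4 : ℕ) : SC (mZa F) (W F e1 e2 e3 e4) ((-1) ^ e2) := by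
  have h := sc_mul_right (sc_mul_right (sc_mul_right
    (sc_pow_right (sc_of_comm (x := mZa F) (w := mZa F) rfl) e1)
    (sc_pow_right (sc_of_anti (zaxa F)) e2))
    (sc_pow_right (sc_of_comm (zazb F)) e3))
    (sc_pow_right (sc_of_comm (zaxb F)) e4)
  simpa [W] using h

theorem sc_xa_W (e1 e2 e3 e4 : ℕ) : SC (mXa F) (W F e1 e2 e3 e4) ((-1) ^ e1) := by
  have h := sc_mul_right (sc_mul_right (sc_mul_right
    (sc_pow_right (sc_of_anti (xaza F)) e1)
    (sc_pow_right (sc_of_comm (x := mXa F) (w := mXa F) rfl) e2))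
    (sc_pow_right (sc_of_comm (xazb F)) e3))
    (sc_pow_right (sc_of_comm (xaxb F)) e4)
  simpa [W] using h

theorem sc_zb_W (e1 e2 e3 e4 : ℕ) : SC (mZb F) (W F e1 e2 e3 e4) ((-1) ^ e4) := by
  have h := sc_mul_right (sc_mul_right (sc_mul_right
    (sc_pow_right (sc_of_comm (zazb F).symm) e1)
    (sc_pow_right (sc_of_comm (xazb F).symm) e2))
    (sc_pow_right (sc_of_comm (x := mZb F) (w := mZb F) rfl) e3))
    (sc_pow_right (sc_of_anti (zbxb F)) e4)
  simpa [W] using h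

theorem sc_xb_W (e1 e2 e3 e4 : ℕ) : SC (mXb F) (W F e1 e2 e3 e4) ((-1) ^ e3) := by
  have h := sc_mul_right (sc_mul_right (sc_mul_right
    (sc_pow_right (sc_of_comm (zaxb F).symm) e1)
    (sc_pow_right (sc_of_comm (xaxb F).symm) e2))
    (sc_pow_right (sc_of_anti (xbzb F)) e3))
    (sc_pow_right (sc_of_comm (x := mXb F) (w := mXb F) rfl) e4)
  simpa [W] using h

/-! ### Right multiplication of a word by a generator -/

theorem W_mul_xb (e1 e2 e3 e4 : ℕ) : W F e1 e2 e3 e4 * mXb F = W F e1 e2 e3 (e4 + 1) := by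
  unfold W
  rw [Matrix.mul_assoc, ← pow_succ]

theorem W_mul_zb (e1 e2 e3 e4 : ℕ) :
    W F e1 e2 e3 e4 * mZb F = (-1 : F) ^ e4 • W F e1 e2 (e3 + 1) e4 := by
  have h : mXb F ^ e4 * mZb F = (-1 : F) ^ e4 • (mZb F * mXb F ^ e4) :=
    sc_pow_left (sc_of_anti (xbzb F)) e4
  unfold W
  rw [Matrix.mul_assoc, h, Matrix.mul_smul, ← Matrix.mul_assoc, Matrix.mul_assoc _ (mZb F ^ e3),
    ← pow_succ]

theorem W_mul_xa (e1 e2 e3 e4 : ℕ) : W F e1 e2 e3 e4 * mXa F = W F e1 (e2 + 1) e3 e4 := by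
  have h : (mZb F ^ e3 * mXb F ^ e4) * mXa F = ((1 : F) ^ e3 * (1 : F) ^ e4) •
      (mXa F * (mZb F ^ e3 * mXb F ^ e4)) :=
    sc_mul_left (sc_pow_left (sc_of_comm (xazb F).symm) e3)
      (sc_pow_left (sc_of_comm (xaxb F).symm) e4)
  rw [one_pow, one_pow, one_mul, one_smul] at h
  unfold W
  rw [pow_succ]
  calc mZa F ^ e1 * mXa F ^ e2 * mZb F ^ e3 * mXb F ^ e4 * mXa F
      = mZa F ^ e1 * mXa F ^ e2 * ((mZb F ^ e3 * mXb F ^ e4) * mXa F) := by
        simp only [Matrix.mul_assoc]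
    _ = mZa F ^ e1 * (mXa F ^ e2 * mXa F) * mZb F ^ e3 * mXb F ^ e4 := by
        rw [h]; simp only [Matrix.mul_assoc]

theorem W_mul_za (e1 e2 e3 e4 : ℕ) :
    W F e1 e2 e3 e4 * mZa F = (-1 : F) ^ e2 • W F (e1 + 1) e2 e3 e4 := by
  have h : (mXa F ^ e2 * mZb F ^ e3 * mXb F ^ e4) * mZa F = ((-1 : F) ^ e2 * (1 : F) ^ e3 *
      (1 : F) ^ e4) • (mZa F * (mXa F ^ e2 * mZb F ^ e3 * mXb F ^ e4)) :=
    sc_mul_left (sc_mul_left (sc_pow_left (sc_of_anti (xaza F)) e2)
      (sc_pow_left (sc_of_comm (zazb F).symm) e3))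
      (sc_pow_left (sc_of_comm (zaxb F).symm) e4)
  rw [one_pow, one_pow, mul_one, mul_one] at h
  unfold W
  rw [pow_succ]
  calc mZa F ^ e1 * mXa F ^ e2 * mZb F ^ e3 * mXb F ^ e4 * mZa F
      = mZa F ^ e1 * ((mXa F ^ e2 * mZb F ^ e3 * mXb F ^ e4) * mZa F) := by
        simp only [Matrix.mul_assoc]
    _ = (-1 : F) ^ e2 • (mZa F ^ e1 * mZa F * mXa F ^ e2 * mZb F ^ e3 * mXb F ^ e4) := by
        rw [h, Matrix.mul_smul]; simp only [Matrix.mul_assoc]

/-! ### Normal form -/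

/-- `M` is a power of `ι` times a word. -/
def NF (ι : F) (M : M4 F) : Prop :=
  ∃ k e1 e2 e3 e4 : ℕ, M = ι ^ k • W F e1 e2 e3 e4

theorem neg_one_pow_eq_iota {ι : F} (hι : ι ^ 2 = -1) (n : ℕ) : (-1 : F) ^ n = ι ^ (2 * n) := by
  rw [pow_mul, hι]

theorem nf_step {ι : F} (hι : ι ^ 2 = -1) {M N : M4 F} (hM : NF ι M) (hN : N ∈ gens ι) :
    NF ι (M * N) := by
  obtain ⟨k, e1, e2, e3, e4, rfl⟩ := hM
  simp only [gens, Set.mem_insert_iff, Set.mem_singleton_iff] at hN
  rcases hN with rfl | rfl | rfl | rfl | rfl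
  · refine ⟨k + 1, e1, e2, e3, e4, ?_⟩
    rw [Matrix.mul_smul, Matrix.mul_one, smul_smul, pow_succ, mul_comm]
  · refine ⟨k + 2 * e2, e1 + 1, e2, e3, e4, ?_⟩
    rw [Matrix.smul_mul, W_mul_za, smul_smul, neg_one_pow_eq_iota hι, ← pow_add]
  · exact ⟨k, e1, e2 + 1, e3, e4, by rw [Matrix.smul_mul, W_mul_xa]⟩
  · refine ⟨k + 2 * e4, e1, e2, e3 + 1, e4, ?_⟩
    rw [Matrix.smul_mul, W_mul_zb, smul_smul, neg_one_pow_eq_iota hι, ← pow_add]
  · exact ⟨k, e1, e2, e3, e4 + 1, by rw [Matrix.smul_mul, W_mul_xb]⟩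

theorem gens_pow_four {ι : F} (hι : ι ^ 2 = -1) {N : M4 F} (hN : N ∈ gens ι) :
    N * N * N * N = 1 := by
  simp only [gens, Set.mem_insert_iff, Set.mem_singleton_iff] at hN
  have h4 : ι * (ι * (ι * ι)) = 1 := by
    have : ι * ι = -1 := by rw [← pow_two, hι]
    rw [this]; simp [this]
  rcases hN with rfl | rfl | rfl | rfl | rfl
  · simp only [Matrix.mul_smul, Matrix.mul_one, smul_smul]
    rw [h4, one_smul]
  · rw [zaza, Matrix.one_mul, zaza]
  · rw [xaxa, Matrix.one_mul, xaxa]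
  · rw [zbzb, Matrix.one_mul, zbzb]
  · rw [xbxb, Matrix.one_mul, xbxb]

theorem nf_of_mem {ι : F} (hι : ι ^ 2 = -1) {g : GL (Fin 4) F} (hg : g ∈ R0 ι) :
    NF ι (g : M4 F) := by
  unfold R0 at hg
  induction hg using Subgroup.closure_induction_right with
  | one => exact ⟨0, 0, 0, 0, 0, by simp [W]⟩
  | mul_right x hx y hy ih =>
    rw [Units.val_mul]
    exact nf_step hι ih hy
  | mul_inv_cancel x hx y hy ih =>
    have h4 := gens_pow_four hι hy
    have hinv : y⁻¹ = y * y * y := by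
      apply inv_eq_of_mul_eq_one_right
      apply Units.ext
      simp only [Units.val_mul, Units.val_one]
      rw [← h4]
      simp only [Matrix.mul_assoc]
    rw [hinv]
    have e : ((x * (y * y * y) : GL (Fin 4) F) : M4 F) =
        (x : M4 F) * (y : M4 F) * (y : M4 F) * (y : M4 F) := by
      simp only [Units.val_mul, Matrix.mul_assoc]
    rw [e]
    exact nf_step hι (nf_step hι (nf_step hι ih hy) hy) hy


/-! ### The generators as units -/

/-- `Z ⊗ 1` as a unit. -/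
def uZa (F : Type u) [Field F] : GL (Fin 4) F := ⟨mZa F, mZa F, zaza F, zaza F⟩
/-- `X ⊗ 1` as a unit. -/
def uXa (F : Type u) [Field F] : GL (Fin 4) F := ⟨mXa F, mXa F, xaxa F, xaxa F⟩
/-- `1 ⊗ Z` as a unit. -/
def uZb (F : Type u) [Field F] : GL (Fin 4) F := ⟨mZb F, mZb F, zbzb F, zbzb F⟩
/-- `1 ⊗ X` as a unit. -/
def uXb (F : Type u) [Field F] : GL (Fin 4) F := ⟨mXb F, mXb F, xbxb F, xbxb F⟩

theorem iota_mul_neg {ι : F} (hι : ι ^ 2 = -1) : ι * -ι = 1 := by
  rw [mul_neg, ← pow_two, hι, neg_neg]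

/-- `ι • 1` as a unit. -/
def uI (ι : F) (hι : ι ^ 2 = -1) : GL (Fin 4) F :=
  ⟨ι • 1, (-ι) • 1, by
    rw [Matrix.smul_mul, Matrix.mul_smul, Matrix.one_mul, smul_smul]
    first
      | rw [iota_mul_neg hι, one_smul]
      | rw [mul_comm, iota_mul_neg hι, one_smul], by
    rw [Matrix.smul_mul, Matrix.mul_smul, Matrix.one_mul, smul_smul]
    first
      | rw [iota_mul_neg hι, one_smul]
      | rw [mul_comm, iota_mul_neg hι, one_smul]⟩

theorem uZa_mem (ι : F) : uZa F ∈ R0 ι :=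
  Subgroup.subset_closure (by show mZa F ∈ gens ι; simp [gens])
theorem uXa_mem (ι : F) : uXa F ∈ R0 ι :=
  Subgroup.subset_closure (by show mXa F ∈ gens ι; simp [gens])
theorem uZb_mem (ι : F) : uZb F ∈ R0 ι :=
  Subgroup.subset_closure (by show mZb F ∈ gens ι; simp [gens])
theorem uXb_mem (ι : F) : uXb F ∈ R0 ι :=
  Subgroup.subset_closure (by show mXb F ∈ gens ι; simp [gens])
theorem uI_mem (ι : F) (hι : ι ^ 2 = -1) : uI ι hι ∈ R0 ι :=
  Subgroup.subset_closure (by show ι • (1 : M4 F) ∈ gens ι; simp [gens])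

/-- The element of `R0` with a given normal form. -/
def elt (ι : F) (hι : ι ^ 2 = -1) (k e1 e2 e3 e4 : ℕ) : GL (Fin 4) F :=
  uI ι hι ^ k * uZa F ^ e1 * uXa F ^ e2 * uZb F ^ e3 * uXb F ^ e4

theorem elt_mem (ι : F) (hι : ι ^ 2 = -1) (k e1 e2 e3 e4 : ℕ) : elt ι hι k e1 e2 e3 e4 ∈ R0 ι :=
  mul_mem (mul_mem (mul_mem (mul_mem (pow_mem (uI_mem ι hι) k) (pow_mem (uZa_mem ι) e1))
    (pow_mem (uXa_mem ι) e2)) (pow_mem (uZb_mem ι) e3)) (pow_mem (uXb_mem ι) e4)

theorem elt_val (ι : F) (hι : ι ^ 2 = -1) (k e1 e2 e3 e4 : ℕ) :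
    ((elt ι hι k e1 e2 e3 e4 : GL (Fin 4) F) : M4 F) = ι ^ k • W F e1 e2 e3 e4 := by
  unfold elt W
  simp only [Units.val_mul, Units.val_pow_eq_pow_val]
  show (ι • (1 : M4 F)) ^ k * mZa F ^ e1 * mXa F ^ e2 * mZb F ^ e3 * mXb F ^ e4 = _
  rw [smul_pow, one_pow]
  simp only [Matrix.smul_mul, Matrix.one_mul]

theorem mem_of_nf {ι : F} (hι : ι ^ 2 = -1) {g : GL (Fin 4) F} (h : NF ι (g : M4 F)) :
    g ∈ R0 ι := by
  obtain ⟨k, e1, e2, e3, e4, hg⟩ := h
  have : g = elt ι hι k e1 e2 e3 e4 := Units.ext (by rw [hg, elt_val])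
  rw [this]
  exact elt_mem ι hι k e1 e2 e3 e4

/-! ### Reduction of the exponents -/

theorem pow_mod_two {x : M4 F} (h : x * x = 1) (n : ℕ) : x ^ n = x ^ (n % 2) := by
  conv_lhs => rw [← Nat.div_add_mod n 2, pow_add, pow_mul, pow_two, h, one_pow, Matrix.one_mul]

theorem W_mod (e1 e2 e3 e4 : ℕ) :
    W F e1 e2 e3 e4 = W F (e1 % 2) (e2 % 2) (e3 % 2) (e4 % 2) := by
  unfold W
  rw [pow_mod_two (zaza F) e1, pow_mod_two (xaxa F) e2, pow_mod_two (zbzb F) e3,
    pow_mod_two (xbxb F) e4]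

theorem iota_pow_mod {ι : F} (hι : ι ^ 2 = -1) (k : ℕ) : ι ^ k = ι ^ (k % 4) := by
  have h4 : ι ^ 4 = 1 := by
    have : ι ^ 4 = (ι ^ 2) ^ 2 := by rw [← pow_mul]
    rw [this, hι]; simp
  conv_lhs => rw [← Nat.div_add_mod k 4, pow_add, pow_mul, h4, one_pow, one_mul]

/-- A word is `1` or anticommutes with an involution. -/
theorem W_cases (e1 e2 e3 e4 : ℕ) :
    W F e1 e2 e3 e4 = 1 ∨
      ∃ x : M4 F, x * x = 1 ∧ x * W F e1 e2 e3 e4 = -(W F e1 e2 e3 e4 * x) := by
  rcases Nat.even_or_odd e1 with h1 | h1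
  · rcases Nat.even_or_odd e2 with h2 | h2
    · rcases Nat.even_or_odd e3 with h3 | h3
      · rcases Nat.even_or_odd e4 with h4 | h4
        · left
          rw [W_mod, Nat.even_iff.1 h1, Nat.even_iff.1 h2, Nat.even_iff.1 h3, Nat.even_iff.1 h4]
          simp [W]
        · right
          refine ⟨mZb F, zbzb F, ?_⟩
          have := sc_zb_W (F := F) e1 e2 e3 e4
          unfold SC at this
          rw [this, h4.neg_one_pow, neg_one_smul]
      · right
        refine ⟨mXb F, xbxb F, ?_⟩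
        have := sc_xb_W (F := F) e1 e2 e3 e4
        unfold SC at this
        rw [this, h3.neg_one_pow, neg_one_smul]
    · right
      refine ⟨mZa F, zaza F, ?_⟩
      have := sc_za_W (F := F) e1 e2 e3 e4
      unfold SC at this
      rw [this, h2.neg_one_pow, neg_one_smul]
  · right
    refine ⟨mXa F, xaxa F, ?_⟩
    have := sc_xa_W (F := F) e1 e2 e3 e4
    unfold SC at this
    rw [this, h1.neg_one_pow, neg_one_smul]

/-! ### Squares and commutation -/

theorem sq_mul {x y : M4 F} {c d s : F} (hx : x * x = c • 1) (hy : y * y = d • 1)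
    (h : SC x y s) (hs : s * s = 1) : (x * y) * (x * y) = (s * c * d) • 1 := by
  unfold SC at h
  have hyx : y * x = s • (x * y) := by
    rw [h, smul_smul, hs, one_smul]
  calc x * y * (x * y) = x * (y * x) * y := by simp only [Matrix.mul_assoc]
    _ = s • ((x * x) * (y * y)) := by
        rw [hyx, Matrix.mul_smul, Matrix.smul_mul]; simp only [Matrix.mul_assoc]
    _ = (s * c * d) • 1 := by
        rw [hx, hy, Matrix.smul_mul, Matrix.one_mul, smul_smul, smul_smul]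

theorem pow_sq_one {x : M4 F} (h : x * x = 1) (n : ℕ) : x ^ n * x ^ n = (1 : F) • 1 := by
  rw [one_smul, ← pow_add, ← two_mul, pow_mul, pow_two, h, one_pow]

theorem neg_one_pow_sq (n : ℕ) : ((-1 : F) ^ n) * ((-1 : F) ^ n) = 1 := by
  rw [← mul_pow]; simp

theorem W_sq (e1 e2 e3 e4 : ℕ) :
    ∃ t : F, (t = 1 ∨ t = -1) ∧ W F e1 e2 e3 e4 * W F e1 e2 e3 e4 = t • 1 := by
  have hAB : SC (mZa F ^ e1) (mXa F ^ e2) ((-1 : F) ^ (e2 * e1)) := by
    have := sc_pow_left (sc_pow_right (sc_of_anti (zaxa F)) e2) e1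
    rwa [← pow_mul] at this
  have h1 := sq_mul (pow_sq_one (zaza F) e1) (pow_sq_one (xaxa F) e2) hAB (neg_one_pow_sq _)
  have hABC : SC (mZa F ^ e1 * mXa F ^ e2) (mZb F ^ e3) (1 : F) := by
    have := sc_mul_left (sc_pow_left (sc_pow_right (sc_of_comm (zazb F)) e3) e1)
      (sc_pow_left (sc_pow_right (sc_of_comm (xazb F)) e3) e2)
    simpa using this
  have h2 := sq_mul h1 (pow_sq_one (zbzb F) e3) hABC (by simp)
  have hABCD : SC (mZa F ^ e1 * mXa F ^ e2 * mZb F ^ e3) (mXb F ^ e4) ((-1 : F) ^ (e4 * e3)) := by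
    have := sc_mul_left (sc_mul_left (sc_pow_left (sc_pow_right (sc_of_comm (zaxb F)) e4) e1)
      (sc_pow_left (sc_pow_right (sc_of_comm (xaxb F)) e4) e2))
      (sc_pow_left (sc_pow_right (sc_of_anti (zbxb F)) e4) e3)
    simpa [← pow_mul] using this
  have h3 := sq_mul h2 (pow_sq_one (xbxb F) e4) hABCD (neg_one_pow_sq _)
  refine ⟨_, ?_, h3⟩
  have : (-1 : F) ^ (e4 * e3) * (1 * ((-1 : F) ^ (e2 * e1) * 1 * 1) * 1) * 1 =
      (-1 : F) ^ (e4 * e3 + e2 * e1) := by
    rw [pow_add]; ring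
  rw [this]
  exact neg_one_pow_eq_or F _

theorem W_comm (e1 e2 e3 e4 f1 f2 f3 f4 : ℕ) :
    ∃ t : F, (t = 1 ∨ t = -1) ∧ SC (W F e1 e2 e3 e4) (W F f1 f2 f3 f4) t := by
  have h := sc_mul_left (sc_mul_left (sc_mul_left
    (sc_pow_left (sc_za_W (F := F) f1 f2 f3 f4) e1)
    (sc_pow_left (sc_xa_W (F := F) f1 f2 f3 f4) e2))
    (sc_pow_left (sc_zb_W (F := F) f1 f2 f3 f4) e3))
    (sc_pow_left (sc_xb_W (F := F) f1 f2 f3 f4) e4)
  refine ⟨_, ?_, h⟩
  have : ((-1 : F) ^ f2) ^ e1 * ((-1 : F) ^ f1) ^ e2 * ((-1 : F) ^ f4) ^ e3 * ((-1 : F) ^ f3) ^ e4 =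
      (-1 : F) ^ (f2 * e1 + f1 * e2 + f4 * e3 + f3 * e4) := by
    simp only [pow_add, pow_mul]
  rw [this]
  exact neg_one_pow_eq_or F _


/-! ### Auxiliary facts -/

theorem unit_smul_eq_zero {U V : M4 F} (h : U * V = 1) {c : F} (hc : c • U = 0) : c = 0 := by
  have h1 : c • (1 : M4 F) = 0 := by rw [← h, ← Matrix.smul_mul, hc, Matrix.zero_mul]
  have h00 := congrFun (congrFun h1 0) 0
  simpa using h00

theorem sc_unique {x M V : M4 F} {s s' : F} (h : SC x M s) (h' : SC x M s')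
    (hV : (M * x) * V = 1) : s = s' := by
  unfold SC at h h'
  have h0 : (s - s') • (M * x) = 0 := by rw [sub_smul, ← h, ← h', sub_self]
  exact sub_eq_zero.1 (unit_smul_eq_zero hV h0)

theorem trace_zero_of_anti (h2 : (2 : F) ≠ 0) {x w : M4 F} (hxx : x * x = 1)
    (hx : x * w = -(w * x)) : Matrix.trace w = 0 := by
  have h : Matrix.trace w = -Matrix.trace w := by
    calc Matrix.trace w = Matrix.trace ((w * x) * x) := by rw [Matrix.mul_assoc, hxx, Matrix.mul_one]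
      _ = Matrix.trace (x * (w * x)) := Matrix.trace_mul_comm _ _
      _ = Matrix.trace (-w) := by
          rw [← Matrix.mul_assoc, hx, Matrix.neg_mul, Matrix.mul_assoc, hxx, Matrix.mul_one]
      _ = -Matrix.trace w := Matrix.trace_neg _
  have h' : (2 : F) * Matrix.trace w = 0 := by linear_combination h
  exact (mul_eq_zero.1 h').resolve_left h2

theorem commutant_aux (h2 : (2 : F) ≠ 0) (y : M4 F) (hza : mZa F * y = y * mZa F)
    (hxa : mXa F * y = y * mXa F) (hzb : mZb F * y = y * mZb F) (hxb : mXb F * y = y * mXb F) :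
    ∃ c : F, y = c • (1 : M4 F) := by
  have za := fun i j => congrFun (congrFun hza i) j
  have zb := fun i j => congrFun (congrFun hzb i) j
  have xa := fun i j => congrFun (congrFun hxa i) j
  have xb := fun i j => congrFun (congrFun hxb i) j
  have e02 := za 0 2; have e03 := za 0 3; have e12 := za 1 2; have e13 := za 1 3
  have e20 := za 2 0; have e21 := za 2 1; have e30 := za 3 0; have e31 := za 3 1
  have e01 := zb 0 1; have e10 := zb 1 0; have e23 := zb 2 3; have e32 := zb 3 2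
  have d1 := xa 0 2; have d2 := xa 1 3; have d3 := xb 0 1
  simp [mZa, Matrix.mul_apply, Fin.sum_univ_four] at e02 e03 e12 e13 e20 e21 e30 e31
  simp [mZb, Matrix.mul_apply, Fin.sum_univ_four] at e01 e10 e23 e32
  simp [mXa, Matrix.mul_apply, Fin.sum_univ_four] at d1 d2
  simp [mXb, Matrix.mul_apply, Fin.sum_univ_four] at d3
  have ez : ∀ a : F, a = -a → a = 0 := fun a h => by
    have h' : (2 : F) * a = 0 := by linear_combination h
    exact (mul_eq_zero.1 h').resolve_left h2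
  have ez' : ∀ a : F, -a = a → a = 0 := fun a h => ez a h.symm
  have z02 := ez _ e02; have z03 := ez _ e03; have z12 := ez _ e12; have z13 := ez _ e13
  have z20 := ez' _ e20; have z21 := ez' _ e21; have z30 := ez' _ e30; have z31 := ez' _ e31
  have z01 := ez _ e01; have z10 := ez' _ e10; have z23 := ez _ e23; have z32 := ez' _ e32
  refine ⟨y 0 0, ?_⟩
  ext i j
  fin_cases i <;> fin_cases j <;>
    simp [Matrix.one_apply, z02, z03, z12, z13, z20, z21, z30, z31, z01, z10, z23, z32, d1, d2, d3]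

theorem iota_ne_zero {ι : F} (hι : ι ^ 2 = -1) : ι ≠ 0 := by
  intro h
  rw [h] at hι
  simp at hι

theorem iota_pow_ne_one (h2 : (2 : F) ≠ 0) {ι : F} (hι : ι ^ 2 = -1) :
    ∀ d : ℕ, 0 < d → d < 4 → ι ^ d ≠ 1 := by
  intro d h0 h4 h
  interval_cases d
  · rw [pow_one] at h
    rw [h] at hι
    exact h2 (by linear_combination hι)
  · rw [hι] at h
    exact h2 (by linear_combination (-1 : F) * h)
  · have h' : -ι = 1 := by
      rw [← h, pow_succ, hι]; ring
    have h'' : ι = -1 := by linear_combination (-1 : F) * h'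
    rw [h''] at hι
    exact h2 (by linear_combination hι)

theorem iota_pow_inj_aux (h2 : (2 : F) ≠ 0) {ι : F} (hι : ι ^ 2 = -1) (a b : ℕ) (hab : a < b)
    (hb : b < 4) (h : ι ^ a = ι ^ b) : False := by
  have hb' : ι ^ b = ι ^ a * ι ^ (b - a) := by
    rw [← pow_add]; congr 1; omega
  rw [hb'] at h
  have h1 : ι ^ (b - a) = 1 := by
    have := mul_left_cancel₀ (pow_ne_zero a (iota_ne_zero hι)) (by rw [mul_one]; exact h :
      ι ^ a * 1 = ι ^ a * ι ^ (b - a))
    exact this.symm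
  exact iota_pow_ne_one h2 hι (b - a) (by omega) (by omega) h1

theorem iota_pow_inj (h2 : (2 : F) ≠ 0) {ι : F} (hι : ι ^ 2 = -1) (a b : Fin 4)
    (h : ι ^ (a : ℕ) = ι ^ (b : ℕ)) : a = b := by
  apply Fin.ext
  rcases lt_trichotomy (a : ℕ) (b : ℕ) with hlt | heq | hgt
  · exact (iota_pow_inj_aux h2 hι _ _ hlt b.2 h).elim
  · exact heq
  · exact (iota_pow_inj_aux h2 hι _ _ hgt a.2 h.symm).elim

theorem sign_inj (h2 : (2 : F) ≠ 0) (a b : Fin 2) (h : (-1 : F) ^ (a : ℕ) = (-1 : F) ^ (b : ℕ)) :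
    a = b := by
  fin_cases a <;> fin_cases b
  · rfl
  · exfalso
    simp at h
    exact h2 (by linear_combination h)
  · exfalso
    simp at h
    exact h2 (by linear_combination (-1 : F) * h)
  · rfl

/-! ### The package -/

theorem pkgR0 : PkgR0.{u} := by
  intro F _ _ h2 ι hι
  classical
  have hι4 : ι ^ 4 = 1 := by
    have : ι ^ 4 = (ι ^ 2) ^ 2 := by rw [← pow_mul]
    rw [this, hι]; simp
  refine ⟨?_, ?_, ?_, ?_, ?_, ?_, ?_, ?_, ?_⟩
  · -- card
    let φ : Fin 4 × Fin 2 × Fin 2 × Fin 2 × Fin 2 → GL (Fin 4) F := fun t =>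
      elt ι hι (t.1 : ℕ) (t.2.1 : ℕ) (t.2.2.1 : ℕ) (t.2.2.2.1 : ℕ) (t.2.2.2.2 : ℕ)
    have hrange : ((R0 ι : Subgroup (GL (Fin 4) F)) : Set (GL (Fin 4) F)) = Set.range φ := by
      ext g
      constructor
      · intro hg
        obtain ⟨k, e1, e2, e3, e4, h⟩ := nf_of_mem hι hg
        refine ⟨(⟨k % 4, Nat.mod_lt _ (by norm_num)⟩, ⟨e1 % 2, Nat.mod_lt _ (by norm_num)⟩,
          ⟨e2 % 2, Nat.mod_lt _ (by norm_num)⟩, ⟨e3 % 2, Nat.mod_lt _ (by norm_num)⟩,
          ⟨e4 % 2, Nat.mod_lt _ (by norm_num)⟩), ?_⟩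
        apply Units.ext
        show ((elt ι hι (k % 4) (e1 % 2) (e2 % 2) (e3 % 2) (e4 % 2) : GL (Fin 4) F) : M4 F) = _
        rw [elt_val, h, iota_pow_mod hι k, W_mod e1 e2 e3 e4]
      · rintro ⟨t, rfl⟩
        exact elt_mem ι hι _ _ _ _ _
    have hinj : Function.Injective φ := by
      rintro ⟨k, e1, e2, e3, e4⟩ ⟨k', f1, f2, f3, f4⟩ h
      have hv : ι ^ (k : ℕ) • W F e1 e2 e3 e4 = ι ^ (k' : ℕ) • W F f1 f2 f3 f4 := by
        rw [← elt_val ι hι, ← elt_val ι hι]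
        exact congrArg Units.val h
      obtain ⟨g, hg⟩ : ∃ g : GL (Fin 4) F, (g : M4 F) = ι ^ (k : ℕ) • W F e1 e2 e3 e4 :=
        ⟨_, elt_val ι hι k e1 e2 e3 e4⟩
      have hginv : (g : M4 F) * ((g⁻¹ : GL (Fin 4) F) : M4 F) = 1 := by
        rw [← Units.val_mul, mul_inv_cancel, Units.val_one]
      have key : ∀ (x : M4 F) (s s' : F), x * x = 1 → SC x (W F e1 e2 e3 e4) s →
          SC x (W F f1 f2 f3 f4) s' → s = s' := by
        intro x s s' hxx hs hs'
        have a1 : SC x (g : M4 F) s := by rw [hg]; exact sc_smul_right _ hs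
        have a2 : SC x (g : M4 F) s' := by rw [hg, hv]; exact sc_smul_right _ hs'
        refine sc_unique a1 a2 (V := x * ((g⁻¹ : GL (Fin 4) F) : M4 F)) ?_
        calc (g : M4 F) * x * (x * ((g⁻¹ : GL (Fin 4) F) : M4 F))
            = (g : M4 F) * (x * x) * ((g⁻¹ : GL (Fin 4) F) : M4 F) := by
              simp only [Matrix.mul_assoc]
          _ = 1 := by rw [hxx, Matrix.mul_one, hginv]
      have h1 : e1 = f1 := sign_inj h2 _ _ (key _ _ _ (xaxa F) (sc_xa_W _ _ _ _) (sc_xa_W _ _ _ _))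
      have h2' : e2 = f2 := sign_inj h2 _ _ (key _ _ _ (zaza F) (sc_za_W _ _ _ _) (sc_za_W _ _ _ _))
      have h3 : e3 = f3 := sign_inj h2 _ _ (key _ _ _ (xbxb F) (sc_xb_W _ _ _ _) (sc_xb_W _ _ _ _))
      have h4 : e4 = f4 := sign_inj h2 _ _ (key _ _ _ (zbzb F) (sc_zb_W _ _ _ _) (sc_zb_W _ _ _ _))
      subst h1 h2' h3 h4
      have hk : k = k' := by
        apply iota_pow_inj h2 hι
        have h0 : (ι ^ (k : ℕ) - ι ^ (k' : ℕ)) • W F e1 e2 e3 e4 = 0 := by
          rw [sub_smul, hv, sub_self]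
        obtain ⟨w, hw⟩ : ∃ w : GL (Fin 4) F, (w : M4 F) = W F e1 e2 e3 e4 :=
          ⟨elt ι hι 0 e1 e2 e3 e4, by rw [elt_val, pow_zero, one_smul]⟩
        have hwinv : W F e1 e2 e3 e4 * ((w⁻¹ : GL (Fin 4) F) : M4 F) = 1 := by
          rw [← hw, ← Units.val_mul, mul_inv_cancel, Units.val_one]
        exact sub_eq_zero.1 (unit_smul_eq_zero hwinv h0)
      rw [hk]
    have hc : Nat.card (R0 ι) = Nat.card ((R0 ι : Subgroup (GL (Fin 4) F)) : Set (GL (Fin 4) F)) :=
      rfl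
    rw [hc, hrange, Nat.card_range_of_injective hinj]
    simp [Nat.card_prod]
  · -- trace
    intro g hg
    obtain ⟨k, e1, e2, e3, e4, h⟩ := nf_of_mem hι hg
    rcases W_cases (F := F) e1 e2 e3 e4 with h1 | ⟨x, hxx, hx⟩
    · left
      exact ⟨ι ^ k, by rw [h, h1]⟩
    · right
      rw [h, Matrix.trace_smul, trace_zero_of_anti h2 hxx hx, smul_zero]
  · -- scalars have fourth power one
    intro g hg c hc
    obtain ⟨k, e1, e2, e3, e4, h⟩ := nf_of_mem hι hg
    rcases W_cases (F := F) e1 e2 e3 e4 with h1 | ⟨x, hxx, hx⟩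
    · rw [h1] at h
      have h00 := congrFun (congrFun (hc.symm.trans h) 0) 0
      simp at h00
      rw [h00, ← pow_mul, mul_comm, pow_mul, hι4, one_pow]
    · exfalso
      have hgx : x * (g : M4 F) = -((g : M4 F) * x) := by
        rw [h, Matrix.mul_smul, hx, Matrix.smul_mul, smul_neg]
      rw [hc, Matrix.mul_smul, Matrix.smul_mul, Matrix.mul_one, Matrix.one_mul] at hgx
      have h0 : (2 : F) • (c • x) = 0 := by
        rw [two_smul]
        nth_rewrite 1 [hgx]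
        exact neg_add_cancel _
      have h0' : c • x = 0 := (smul_eq_zero.1 h0).resolve_left h2
      have hc0 : c = 0 := unit_smul_eq_zero hxx h0'
      rw [hc0, zero_smul] at hc
      exact Units.ne_zero g hc
  · -- the four scalars
    intro c hc
    have hfac : (c - 1) * (c + 1) * ((c - ι) * (c + ι)) = 0 := by
      linear_combination hc + (-(c ^ 2) + 1) * hι
    have hcases : c = ι ^ 0 ∨ c = ι ^ 2 ∨ c = ι ^ 1 ∨ c = ι ^ 3 := by
      rcases mul_eq_zero.1 hfac with h | h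
      · rcases mul_eq_zero.1 h with h | h
        · left; rw [pow_zero]; exact sub_eq_zero.1 h
        · right; left; rw [hι]; exact eq_neg_of_add_eq_zero_left h
      · rcases mul_eq_zero.1 h with h | h
        · right; right; left; rw [pow_one]; exact sub_eq_zero.1 h
        · right; right; right
          have : ι ^ 3 = -ι := by rw [pow_succ, hι]; ring
          rw [this]; exact eq_neg_of_add_eq_zero_left h
    have hex : ∃ k : ℕ, c = ι ^ k := by
      rcases hcases with h | h | h | h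
      · exact ⟨0, h⟩
      · exact ⟨2, h⟩
      · exact ⟨1, h⟩
      · exact ⟨3, h⟩
    obtain ⟨k, rfl⟩ := hex
    refine ⟨elt ι hι k 0 0 0 0, elt_mem ι hι _ _ _ _ _, ?_⟩
    rw [elt_val]
    simp [W]
  · -- squares
    intro g hg
    obtain ⟨k, e1, e2, e3, e4, h⟩ := nf_of_mem hι hg
    obtain ⟨t, ht, hW⟩ := W_sq (F := F) e1 e2 e3 e4
    have hkk : ι ^ k * ι ^ k = (-1 : F) ^ k := by
      rw [← mul_pow, ← pow_two, hι]
    have hgg : (g : M4 F) * (g : M4 F) = ((-1 : F) ^ k * t) • 1 := by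
      rw [h, Matrix.smul_mul, Matrix.mul_smul, hW, smul_smul, smul_smul, hkk]
    rw [hgg]
    rcases neg_one_pow_eq_or F k with hk | hk <;> rcases ht with ht | ht <;> rw [hk, ht] <;> simp
  · -- commutation
    intro g hg k hk
    obtain ⟨a, e1, e2, e3, e4, h⟩ := nf_of_mem hι hg
    obtain ⟨b, f1, f2, f3, f4, h'⟩ := nf_of_mem hι hk
    obtain ⟨t, ht, hW⟩ := W_comm (F := F) e1 e2 e3 e4 f1 f2 f3 f4
    have hsc : SC (g : M4 F) (k : M4 F) t := by
      rw [h, h']
      exact sc_smul_left _ (sc_smul_right _ hW)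
    unfold SC at hsc
    rcases ht with ht | ht
    · left; rw [hsc, ht, one_smul]
    · right; rw [hsc, ht, neg_one_smul]
  · -- commutant
    intro y hy
    exact commutant_aux h2 y (hy _ (uZa_mem ι)) (hy _ (uXa_mem ι)) (hy _ (uZb_mem ι))
      (hy _ (uXb_mem ι))
  · -- normal form
    intro g hg
    exact nf_of_mem hι hg
  · -- converse
    intro g hg
    exact mem_of_nf hι hg

end Cfsg.Agent.Lib.Helper88.C64
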